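import Mathlib
import Cfsg.Prelude.Def_OddOrderLocal
import Cfsg.Statements.S1350
import Cfsg.Statements.S1351
import Cfsg.Statements.S1352
import Cfsg.Statements.S1353
import Cfsg.Statements.S1354
import Cfsg.Statements.S1366
import Cfsg.Statements.S1369
import Cfsg.Statements.S1414
import Cfsg.Statements.S1426
import Cfsg.Statements.S1429
import Cfsg.Statements.S1430

/-!
# S1437 (Bender–Glauberman Theorem 15.2, second part): package statements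

Team project led by helper6.  Each `PK…` below is the exact statement of one package; a package is
a theorem `… : Cfsg.Agent.Lib.Helper6.BG37.PK….{u}` proved in the taker's own Lib file.

Notation of the paper proof: `N = M_σ`, `K` the Hall `κ(M)`-subgroup, `Ks = C_N(K)` of prime order
`q`, `Q` the normal Sylow `q`-subgroup of `N`, `D₁` a `K`-invariant complement of `Q` in `N`,
`Q₁ = [Q, D₁]`, `Y₀ = [Q₁, Q₁]`, `Q₀ = C_Q(D₁)`.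
-/

set_option autoImplicit false

namespace Cfsg.Agent.Lib.Helper6.BG37

open Cfsg

universe u

/-- The abstract configuration: `K` acts coprimely on the non-nilpotent solvable group `N` of odd
order, every non-identity element of `K` has the same fixed points `N ∩ C(K)` on `N`, this fixed
point group has prime order `q`, and `[N, K] = N`. -/
structure Cfg {G : Type u} [Group G] (q : ℕ) (N K : Subgroup G) : Prop where
  hq : q.Prime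
  hKN : K ≤ Subgroup.normalizer (N : Set G)
  hsolv : Group.IsSolvable ↥(N ⊔ K)
  hodd : Odd (Nat.card ↥(N ⊔ K))
  hcop : (Nat.card N).Coprime (Nat.card K)
  hK1 : K ≠ ⊥
  hfix : ∀ k ∈ K, k ≠ 1 →
    N ⊓ Subgroup.centralizer ({k} : Set G) = N ⊓ Subgroup.centralizer (K : Set G)
  hKs : Nat.card ↥(N ⊓ Subgroup.centralizer (K : Set G)) = q
  hNK : ⁅N, K⁆ = N
  hnn : ¬ Group.IsNilpotent ↥N

/-- Package PK1 (BG front end).  `M_F ≠ M_σ` forces `U = 1`, `K ≠ 1`, `M_σ = M'`, `M_σ` not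
nilpotent; plus the bookkeeping facts `M = M_σ K`, coprime orders, `[M_σ, K] = M_σ`.
(`M_σ` nilpotent would give `M_F = M_σ` by S1350 + `Helper35.BG.fittingHallOf_le_sigmaCore`; a prime
of `U` contradicts S1429; `K = 1` contradicts S1426 with `E = ⊥`; `[M_σ, K] = M_σ` is S1426.) -/
def PK1 : Prop :=
  ∀ {G : Type u} [Group G] [Finite G] (hG : Cfsg.IsMinSimpleOddOrder G)
    (_h1350 : type_of% (@Cfsg.CfsgFrozen.S1350 G _ _ hG))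
    (_h1426 : type_of% (@Cfsg.CfsgFrozen.S1426 G _ _ hG))
    (_h1429 : type_of% (@Cfsg.CfsgFrozen.S1429 G _ _ hG))
    (M : Subgroup G) (_hM : IsCoatom M) (K U : Subgroup G)
    (_hKU : Cfsg.IsSigmaDecomposition M K U)
    (_hne : Cfsg.fittingHallOf M ≠ Cfsg.sigmaCore M),
    U = ⊥ ∧ K ≠ ⊥ ∧ Cfsg.sigmaCore M = ⁅M, M⁆ ∧ ¬ Group.IsNilpotent ↥(Cfsg.sigmaCore M) ∧
      Cfsg.sigmaCore M ⊔ K = M ∧ (Nat.card ↥(Cfsg.sigmaCore M)).Coprime (Nat.card K) ∧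
      ⁅Cfsg.sigmaCore M, K⁆ = Cfsg.sigmaCore M

/-- Package PK2 (BG front end): `K* = C_{M_σ}(K)` has prime order when `U = 1`, `K ≠ 1`.
(`M*` from S1366; `K*` cyclic by S1351 for `M*`; `U*` from S1352 for `(M*, K*)`, nontrivial by
S1369; S1353 and S1429, S1430 for `M*`; then the landed `Cfsg.Agent.S1446.result` with
`K := U*`, `R := K*`, `M := M*_σ` gives `#K*` prime.  `K* ≠ 1` is S1354.) -/
def PK2 : Prop :=
  ∀ {G : Type u} [Group G] [Finite G] (hG : Cfsg.IsMinSimpleOddOrder G)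
    (_h1350 : type_of% (@Cfsg.CfsgFrozen.S1350 G _ _ hG))
    (_h1351 : type_of% (@Cfsg.CfsgFrozen.S1351 G _ _ hG))
    (_h1352 : type_of% (@Cfsg.CfsgFrozen.S1352 G _ _ hG))
    (_h1353 : type_of% (@Cfsg.CfsgFrozen.S1353 G _ _ hG))
    (_h1354 : type_of% (@Cfsg.CfsgFrozen.S1354 G _ _ hG))
    (_h1366 : type_of% (@Cfsg.CfsgFrozen.S1366 G _ _ hG))
    (_h1369 : type_of% (@Cfsg.CfsgFrozen.S1369 G _ _ hG))
    (_h1429 : type_of% (@Cfsg.CfsgFrozen.S1429 G _ _ hG))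
    (_h1430 : type_of% (@Cfsg.CfsgFrozen.S1430 G _ _ hG))
    (M : Subgroup G) (_hM : IsCoatom M) (K U : Subgroup G)
    (_hKU : Cfsg.IsSigmaDecomposition M K U) (_hU : U = ⊥) (_hK1 : K ≠ ⊥),
    (Nat.card ↥(Cfsg.sigmaCore M ⊓ Subgroup.centralizer (K : Set G))).Prime

/-- Package PK3 (abstract; landed `Cfsg.Agent.S1445.result` in the group `↥(N ⊔ K)`): the fixed
point group `N ∩ C(K)` lies in a normal `q`-subgroup of `N ⊔ K` contained in `N` (namely `O_q(N)`).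
(If `F(N) ∩ C(K) = 1` then S1445 gives `N = [N,K] ≤ F(N)`, so `N` is nilpotent.) -/
def PK3 : Prop :=
  ∀ {G : Type u} [Group G] [Finite G] (q : ℕ) (N K : Subgroup G), Cfg q N K →
    ∃ Q' : Subgroup G, Q' ≤ N ∧ IsPGroup q Q' ∧ N ≤ Subgroup.normalizer (Q' : Set G) ∧
      K ≤ Subgroup.normalizer (Q' : Set G) ∧ N ⊓ Subgroup.centralizer (K : Set G) ≤ Q'

/-- Package PK4 (abstract; S1445 in the quotient `(N ⊔ K)/Q'`): if every non-identity element of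
`K` has all its fixed points on `N` inside the normal subgroup `Q'`, then `N/Q'` is nilpotent,
stated without quotients: subgroups of `N` meeting `Q'` trivially are nilpotent, and `S Q'` is
normal in `N` for every Sylow subgroup `S` of `N`. -/
def PK4 : Prop :=
  ∀ {G : Type u} [Group G] [Finite G] (N K Q' : Subgroup G),
    K ≤ Subgroup.normalizer (N : Set G) → Group.IsSolvable ↥(N ⊔ K) → Odd (Nat.card ↥(N ⊔ K)) →
    (Nat.card N).Coprime (Nat.card K) → K ≠ ⊥ → ⁅N, K⁆ = N →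
    Q' ≤ N → N ≤ Subgroup.normalizer (Q' : Set G) → K ≤ Subgroup.normalizer (Q' : Set G) →
    (∀ k ∈ K, k ≠ 1 → N ⊓ Subgroup.centralizer ({k} : Set G) ≤ Q') →
    (∀ D : Subgroup G, D ≤ N → D ⊓ Q' = ⊥ → Group.IsNilpotent ↥D) ∧
    (∀ (r : ℕ) [Fact r.Prime] (S : Subgroup G), S ≤ N → IsPGroup r S → ¬ r ∣ S.relIndex N →
      N ≤ Subgroup.normalizer ((S ⊔ Q' : Subgroup G) : Set G))

/-- Package PK5 ("Lemma L"; abstract; landed `Cfsg.Agent.S1446.result` in the quotient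
`(T ⊔ D ⊔ K)/Y`): `T` a `q`-group acted on by `D ⋊ K`, `K` acting on `D` without fixed points, all
non-identity elements of `K` with the same fixed points on `T`, of order dividing `q`,
`[T, D] = T`, and `Y < T` a `D K`-invariant subgroup containing `[T, T]`.  Then `#K` is prime,
`#T = #Y · q ^ #K` and the fixed points of `K` on `T` are not all in `Y`. -/
def PK5 : Prop :=
  ∀ {G : Type u} [Group G] [Finite G] (q : ℕ) (_hq : q.Prime) (T D K Y : Subgroup G),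
    IsPGroup q T → D ≤ Subgroup.normalizer (T : Set G) → K ≤ Subgroup.normalizer (T : Set G) →
    K ≤ Subgroup.normalizer (D : Set G) → Group.IsSolvable ↥(D ⊔ K) → Odd (Nat.card ↥(D ⊔ K)) →
    (Nat.card ↥(D ⊔ K)).Coprime q → K ≠ ⊥ →
    (∀ k ∈ K, k ≠ 1 → D ⊓ Subgroup.centralizer ({k} : Set G) = ⊥) →
    (∀ k ∈ K, k ≠ 1 →
      T ⊓ Subgroup.centralizer ({k} : Set G) = T ⊓ Subgroup.centralizer (K : Set G)) →
    Nat.card ↥(T ⊓ Subgroup.centralizer (K : Set G)) ∣ q →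
    ⁅T, D⁆ = T → Y < T → ⁅T, T⁆ ≤ Y →
    D ≤ Subgroup.normalizer (Y : Set G) → K ≤ Subgroup.normalizer (Y : Set G) →
    (Nat.card K).Prime ∧ Nat.card T = Nat.card Y * q ^ Nat.card K ∧
      ¬ (T ⊓ Subgroup.centralizer (K : Set G) ≤ Y)

/-- The hypotheses on the normal Sylow `q`-subgroup `Q` of `N` and a `K`-invariant complement `D₁`. -/
structure QD {G : Type u} [Group G] (q : ℕ) (N K Q D₁ : Subgroup G) : Prop where
  hQN : Q ≤ N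
  hQq : IsPGroup q Q
  hQsyl : ¬ q ∣ Q.relIndex N
  hNQ : N ≤ Subgroup.normalizer (Q : Set G)
  hKQ : K ≤ Subgroup.normalizer (Q : Set G)
  hKsQ : N ⊓ Subgroup.centralizer (K : Set G) ≤ Q
  hD : Cfsg.IsComplIn Q D₁ N
  hKD : K ≤ Subgroup.normalizer (D₁ : Set G)
  hDnil : Group.IsNilpotent ↥D₁

/-- Package PK6a (abstract; uses Lemma L = PK5 as a hypothesis): with `Q₁ = [Q, D₁]` and
`Y₀ = [Q₁, Q₁]`: `#K` is prime, `#Q₁ = #Y₀ · q ^ #K`, `C_{Q₁}(D₁) = Y₀`, and `Y₀` is the only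
`D₁ K`-invariant proper subgroup of `Q₁` containing `Y₀`. -/
def PK6a : Prop :=
  ∀ {G : Type u} [Group G] [Finite G] (q : ℕ) (N K Q D₁ : Subgroup G),
    PK5.{u} → Cfg q N K → QD q N K Q D₁ →
    (Nat.card K).Prime ∧
    Nat.card ↥⁅Q, D₁⁆ = Nat.card ↥⁅⁅Q, D₁⁆, ⁅Q, D₁⁆⁆ * q ^ Nat.card K ∧
    ⁅Q, D₁⁆ ⊓ Subgroup.centralizer (D₁ : Set G) = ⁅⁅Q, D₁⁆, ⁅Q, D₁⁆⁆ ∧
    (∀ Y : Subgroup G, ⁅⁅Q, D₁⁆, ⁅Q, D₁⁆⁆ ≤ Y → Y < ⁅Q, D₁⁆ →
      D₁ ≤ Subgroup.normalizer (Y : Set G) → K ≤ Subgroup.normalizer (Y : Set G) →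
      Y = ⁅⁅Q, D₁⁆, ⁅Q, D₁⁆⁆)

/-- Package PKF (abstract, general coprime action): `Q = C_Q(D) [Q, D]` for a `q`-group `Q`
normalized by a `q'`-group `D`. -/
def PKF : Prop :=
  ∀ {G : Type u} [Group G] [Finite G] (q : ℕ) [Fact q.Prime] (Q D : Subgroup G),
    IsPGroup q Q → ¬ q ∣ Nat.card D → D ≤ Subgroup.normalizer (Q : Set G) →
    ∀ x ∈ Q, ∃ x₀ ∈ Q ⊓ Subgroup.centralizer (D : Set G), ∃ x₁ ∈ ⁅Q, D⁆, x = x₀ * x₁

/-- Package PK6c (abstract; the centre argument): `[Q₁, Q] ≤ Y₀`.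
(`Q₁ = [Q, D₁]` and `Y₀ = [Q₁, Q₁]` are normal in `Q`; the subgroup `Y' = {x ∈ Q₁ | [x, Q] ⊆ Y₀}`
— the preimage of `Q₁/Y₀ ∩ Z(Q/Y₀)` — is `D₁ K`-invariant and strictly bigger than `Y₀` when
`Q₁ ≠ 1` (a nontrivial normal subgroup of a `q`-group meets the centre), so `Y' = Q₁` by the
uniqueness hypothesis.) -/
def PK6c : Prop :=
  ∀ {G : Type u} [Group G] [Finite G] (q : ℕ) (N K Q D₁ : Subgroup G),
    Cfg q N K → QD q N K Q D₁ →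
    (∀ Y : Subgroup G, ⁅⁅Q, D₁⁆, ⁅Q, D₁⁆⁆ ≤ Y → Y < ⁅Q, D₁⁆ →
      D₁ ≤ Subgroup.normalizer (Y : Set G) → K ≤ Subgroup.normalizer (Y : Set G) →
      Y = ⁅⁅Q, D₁⁆, ⁅Q, D₁⁆⁆) →
    ∀ x ∈ ⁅Q, D₁⁆, ∀ y ∈ Q, x * y * x⁻¹ * y⁻¹ ∈ ⁅⁅Q, D₁⁆, ⁅Q, D₁⁆⁆

/-- Package PK6d (abstract; the Frattini argument): `Q₁/Y₀` has exponent `q`.
(`Y = {x ∈ Q₁ | x ^ q ∈ Y₀}` is a `D₁ K`-invariant subgroup containing `Y₀`, as `Q₁/Y₀` is
abelian, and `Y ≠ Y₀` by Cauchy when `Q₁ ≠ 1`; so `Y = Q₁` by the uniqueness hypothesis.) -/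
def PK6d : Prop :=
  ∀ {G : Type u} [Group G] [Finite G] (q : ℕ) (N K Q D₁ : Subgroup G),
    Cfg q N K → QD q N K Q D₁ →
    (∀ Y : Subgroup G, ⁅⁅Q, D₁⁆, ⁅Q, D₁⁆⁆ ≤ Y → Y < ⁅Q, D₁⁆ →
      D₁ ≤ Subgroup.normalizer (Y : Set G) → K ≤ Subgroup.normalizer (Y : Set G) →
      Y = ⁅⁅Q, D₁⁆, ⁅Q, D₁⁆⁆) →
    ∀ x ∈ ⁅Q, D₁⁆, x ^ q ∈ ⁅⁅Q, D₁⁆, ⁅Q, D₁⁆⁆

/-- Package PK6e (abstract): `C_{Q₁/Y₀}(D₁) = 1`.
(`Y = {x ∈ Q₁ | [x, D₁] ⊆ Y₀}` is a `D₁ K`-invariant subgroup containing `Y₀`; `Y = Q₁` would give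
`[Q₁, D₁] ≤ Y₀ < Q₁`, against `[Q₁, D₁] = Q₁` (coprime action,
`Helper48.commutator_le_commutator_commutator`); so `Y = Y₀` by the uniqueness hypothesis.  If
`Q₁ = 1` there is nothing to prove.) -/
def PK6e : Prop :=
  ∀ {G : Type u} [Group G] [Finite G] (q : ℕ) (N K Q D₁ : Subgroup G),
    Cfg q N K → QD q N K Q D₁ →
    (∀ Y : Subgroup G, ⁅⁅Q, D₁⁆, ⁅Q, D₁⁆⁆ ≤ Y → Y < ⁅Q, D₁⁆ →
      D₁ ≤ Subgroup.normalizer (Y : Set G) → K ≤ Subgroup.normalizer (Y : Set G) →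
      Y = ⁅⁅Q, D₁⁆, ⁅Q, D₁⁆⁆) →
    ∀ x ∈ ⁅Q, D₁⁆, (∀ d ∈ D₁, x * d * x⁻¹ * d⁻¹ ∈ ⁅⁅Q, D₁⁆, ⁅Q, D₁⁆⁆) →
      x ∈ ⁅⁅Q, D₁⁆, ⁅Q, D₁⁆⁆

/-- Package PK6b (abstract; from the conclusions of PK6a, PK6c, PK6d, PK6e and PKF to the structure
of `Q` over `Q₀ = C_Q(D₁)`): `Q₀` is normal in `N K`, `Q₀ < Q`, `#Q = #Q₀ · q ^ #K`, `Q/Q₀` is
elementary abelian and irreducible under `N K`, and `C_{Q/Q₀}(D₁) = 1`.
(`Q = Q₀ Q₁` by PKF and `Q₀ ∩ Q₁ = Y₀`; `[Q₀, Q] ≤ [Q₀, Q₀][Q₀, Q₁] ≤ Q₀ Y₀ = Q₀` by PK6c; powers by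
PK6d; a `N K`-invariant `N'` strictly between `Q₀` and `Q` gives `Y = N' ∩ Q₁` strictly between
`Y₀` and `Q₁` by Dedekind, against uniqueness; last clause from PK6e.) -/
def PK6b : Prop :=
  ∀ {G : Type u} [Group G] [Finite G] (q : ℕ) (N K Q D₁ : Subgroup G),
    PKF.{u} → PK6c.{u} → PK6d.{u} → PK6e.{u} → Cfg q N K → QD q N K Q D₁ →
    (Nat.card K).Prime →
    Nat.card ↥⁅Q, D₁⁆ = Nat.card ↥⁅⁅Q, D₁⁆, ⁅Q, D₁⁆⁆ * q ^ Nat.card K →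
    ⁅Q, D₁⁆ ⊓ Subgroup.centralizer (D₁ : Set G) = ⁅⁅Q, D₁⁆, ⁅Q, D₁⁆⁆ →
    (∀ Y : Subgroup G, ⁅⁅Q, D₁⁆, ⁅Q, D₁⁆⁆ ≤ Y → Y < ⁅Q, D₁⁆ →
      D₁ ≤ Subgroup.normalizer (Y : Set G) → K ≤ Subgroup.normalizer (Y : Set G) →
      Y = ⁅⁅Q, D₁⁆, ⁅Q, D₁⁆⁆) →
    N ≤ Subgroup.normalizer ((Q ⊓ Subgroup.centralizer (D₁ : Set G) : Subgroup G) : Set G) ∧
    K ≤ Subgroup.normalizer ((Q ⊓ Subgroup.centralizer (D₁ : Set G) : Subgroup G) : Set G) ∧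
    Q ⊓ Subgroup.centralizer (D₁ : Set G) < Q ∧
    Nat.card Q = Nat.card ↥(Q ⊓ Subgroup.centralizer (D₁ : Set G)) * q ^ Nat.card K ∧
    (∀ a ∈ Q, ∀ b ∈ Q, a ^ q ∈ Q ⊓ Subgroup.centralizer (D₁ : Set G) ∧
      a * b * a⁻¹ * b⁻¹ ∈ Q ⊓ Subgroup.centralizer (D₁ : Set G)) ∧
    (∀ N' : Subgroup G, Q ⊓ Subgroup.centralizer (D₁ : Set G) < N' → N' < Q →
      ¬ (N ≤ Subgroup.normalizer (N' : Set G) ∧ K ≤ Subgroup.normalizer (N' : Set G))) ∧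
    (∀ x ∈ Q, (∀ d ∈ D₁, x * d * x⁻¹ * d⁻¹ ∈ Q ⊓ Subgroup.centralizer (D₁ : Set G)) →
      x ∈ Q ⊓ Subgroup.centralizer (D₁ : Set G))

/-- Package PK8 (abstract; from PK3 and PK4 to the normal Sylow `q`-subgroup): `N` has a Sylow
`q`-subgroup `Q` normalized by `N` and `K`, containing `N ∩ C(K)`, all of whose complements in `N`
are nilpotent.
(Take `Q'` from PK3; by `Cfg.hfix` all `C_N(k)` lie in `Q'`, so PK4 applies; a Sylow `q`-subgroup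
`S` of `N` contains `Q'`, so `S = S ⊔ Q'` is normal in `N`, hence the unique Sylow `q`-subgroup of
`N` and `K`-invariant; a complement `D` has `D ⊓ Q' ≤ D ⊓ S = ⊥`.) -/
def PK8 : Prop :=
  ∀ {G : Type u} [Group G] [Finite G] (q : ℕ) (N K : Subgroup G),
    PK3.{u} → PK4.{u} → Cfg q N K →
    ∃ Q : Subgroup G, Q ≤ N ∧ IsPGroup q Q ∧ ¬ q ∣ Q.relIndex N ∧
      N ≤ Subgroup.normalizer (Q : Set G) ∧ K ≤ Subgroup.normalizer (Q : Set G) ∧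
      N ⊓ Subgroup.centralizer (K : Set G) ≤ Q ∧
      ∀ D : Subgroup G, Cfsg.IsComplIn Q D N → Group.IsNilpotent ↥D

/-- Package PK7a (abstract; Hall theory, e.g. `Helper67.BG.exists_piHallOf_ge`): a `K`-invariant
complement of the normal Sylow `q`-subgroup `Q` of `N`. -/
def PK7a : Prop :=
  ∀ {G : Type u} [Group G] [Finite G] (q : ℕ) [Fact q.Prime] (N K Q : Subgroup G),
    K ≤ Subgroup.normalizer (N : Set G) → Group.IsSolvable ↥(N ⊔ K) → ¬ q ∣ Nat.card K →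
    Q ≤ N → IsPGroup q Q → ¬ q ∣ Q.relIndex N → N ≤ Subgroup.normalizer (Q : Set G) →
    K ≤ Subgroup.normalizer (Q : Set G) →
    ∃ D₁ : Subgroup G, Cfsg.IsComplIn Q D₁ N ∧ K ≤ Subgroup.normalizer (D₁ : Set G)

/-- Package PK7b (abstract; transfer to an arbitrary complement): `C_Q(D) = C_Q(D₁)` for every
complement `D` of `Q` in `N`, given that `C_Q(D₁)` is normal in `N`, contains `[Q, Q]` and that
`C_{Q/C_Q(D₁)}(D₁) = 1`. -/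
def PK7b : Prop :=
  ∀ {G : Type u} [Group G] [Finite G] (q : ℕ) [Fact q.Prime] (N Q D₁ D : Subgroup G),
    Q ≤ N → IsPGroup q Q → ¬ q ∣ Q.relIndex N → N ≤ Subgroup.normalizer (Q : Set G) →
    Cfsg.IsComplIn Q D₁ N → Cfsg.IsComplIn Q D N →
    N ≤ Subgroup.normalizer ((Q ⊓ Subgroup.centralizer (D₁ : Set G) : Subgroup G) : Set G) →
    (∀ a ∈ Q, ∀ b ∈ Q, a * b * a⁻¹ * b⁻¹ ∈ Q ⊓ Subgroup.centralizer (D₁ : Set G)) →
    (∀ x ∈ Q, (∀ d ∈ D₁, x * d * x⁻¹ * d⁻¹ ∈ Q ⊓ Subgroup.centralizer (D₁ : Set G)) →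
      x ∈ Q ⊓ Subgroup.centralizer (D₁ : Set G)) →
    Q ⊓ Subgroup.centralizer (D : Set G) = Q ⊓ Subgroup.centralizer (D₁ : Set G)

/-- Package PK9 (BG; S1414): `q ∈ β(M)`.  (Otherwise S1414 gives a normal `q`-complement of `M_σ`;
it is a complement of `Q`, hence nilpotent, and `M_σ = Q × D` is nilpotent.) -/
def PK9 : Prop :=
  ∀ {G : Type u} [Group G] [Finite G] (hG : Cfsg.IsMinSimpleOddOrder G)
    (_h1414 : type_of% (@Cfsg.CfsgFrozen.S1414 G _ _ hG))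
    (M : Subgroup G) (_hM : IsCoatom M) (q : ℕ) (_hq : q.Prime) (_hqM : q ∣ Nat.card M)
    (Q : Subgroup G), Q ≤ Cfsg.sigmaCore M → IsPGroup q Q → ¬ q ∣ Q.relIndex (Cfsg.sigmaCore M) →
    Cfsg.sigmaCore M ≤ Subgroup.normalizer (Q : Set G) →
    (∀ D : Subgroup G, Cfsg.IsComplIn Q D (Cfsg.sigmaCore M) → Group.IsNilpotent ↥D) →
    ¬ Group.IsNilpotent ↥(Cfsg.sigmaCore M) → q ∈ Cfsg.beta M

/-- Package PK10 (BG bookkeeping; S1350): a normal Sylow `q`-subgroup `Q` of `M_σ` normal in `M`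
lies in `M_F`. -/
def PK10 : Prop :=
  ∀ {G : Type u} [Group G] [Finite G] (hG : Cfsg.IsMinSimpleOddOrder G)
    (_h1350 : type_of% (@Cfsg.CfsgFrozen.S1350 G _ _ hG))
    (M : Subgroup G) (_hM : IsCoatom M) (q : ℕ) (_hq : q.Prime)
    (Q : Subgroup G), Q ≤ Cfsg.sigmaCore M → Q ≠ ⊥ → IsPGroup q Q →
    ¬ q ∣ Q.relIndex (Cfsg.sigmaCore M) → M ≤ Subgroup.normalizer (Q : Set G) →
    Q ≤ Cfsg.fittingHallOf M

end Cfsg.Agent.Lib.Helper6.BG37
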