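import Mathlib
import Cfsg.Agent.Lib.Helper6.BG.S1437Defs
import Cfsg.Agent.Lib.Helper67.BG.Basics
import Cfsg.Agent.Lib.Helper35.BG.Basic
import Cfsg.Statements.S1437

/-!
# S1437 (Bender–Glauberman Theorem 15.2, second part): assembly from the packages

`abstract_main` is the abstract structure theorem; `s1437_of_packages` derives the statement of S1437
from the packages of `S1437Defs` and the earlier statements of the chain (as hypotheses).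
-/

set_option autoImplicit false

namespace Cfsg.Agent.Lib.Helper6.BG37

open Cfsg

universe u

/-- The abstract structure theorem, from the abstract packages. -/
theorem abstract_main (pk3 : PK3.{u}) (pk4 : PK4.{u}) (pk5 : PK5.{u}) (pk6a : PK6a.{u})
    (pkf : PKF.{u}) (pk6c : PK6c.{u}) (pk6d : PK6d.{u}) (pk6e : PK6e.{u}) (pk6b : PK6b.{u})
    (pk7a : PK7a.{u}) (pk7b : PK7b.{u}) (pk8 : PK8.{u})
    {G : Type u} [Group G] [Finite G] (q : ℕ) (N K : Subgroup G) (h : Cfg q N K) :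
    (Nat.card K).Prime ∧ ∃ Q : Subgroup G, Q ≤ N ∧ Q ≠ ⊥ ∧ IsPGroup q Q ∧ ¬ q ∣ Q.relIndex N ∧
      N ≤ Subgroup.normalizer (Q : Set G) ∧ K ≤ Subgroup.normalizer (Q : Set G) ∧
      N ⊓ Subgroup.centralizer (K : Set G) ≤ Q ∧
      ∀ D : Subgroup G, Cfsg.IsComplIn Q D N →
        Group.IsNilpotent ↥D ∧
        N ≤ Subgroup.normalizer ((Q ⊓ Subgroup.centralizer (D : Set G) : Subgroup G) : Set G) ∧
        K ≤ Subgroup.normalizer ((Q ⊓ Subgroup.centralizer (D : Set G) : Subgroup G) : Set G) ∧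
        Q ⊓ Subgroup.centralizer (D : Set G) < Q ∧
        Nat.card Q = Nat.card ↥(Q ⊓ Subgroup.centralizer (D : Set G)) * q ^ Nat.card K ∧
        (∀ a ∈ Q, ∀ b ∈ Q, a ^ q ∈ Q ⊓ Subgroup.centralizer (D : Set G) ∧
          a * b * a⁻¹ * b⁻¹ ∈ Q ⊓ Subgroup.centralizer (D : Set G)) ∧
        ∀ N' : Subgroup G, Q ⊓ Subgroup.centralizer (D : Set G) < N' → N' < Q →
          ¬ (N ≤ Subgroup.normalizer (N' : Set G) ∧ K ≤ Subgroup.normalizer (N' : Set G)) := by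
  have : Fact q.Prime := ⟨h.hq⟩
  obtain ⟨Q, hQN, hQq, hQsyl, hNQ, hKQ, hKsQ, hDnil⟩ := pk8 q N K pk3 pk4 h
  have hqK : ¬ q ∣ Nat.card K := by
    intro hdvd
    have h1 : q ∣ Nat.card N := by
      rw [← h.hKs]
      exact Subgroup.card_dvd_of_le inf_le_left
    exact h.hq.one_lt.ne' (Nat.eq_one_of_dvd_coprimes h.hcop h1 hdvd)
  obtain ⟨D₁, hD₁, hKD₁⟩ := pk7a q N K Q h.hKN h.hsolv hqK hQN hQq hQsyl hNQ hKQ
  have hqd : QD q N K Q D₁ := ⟨hQN, hQq, hQsyl, hNQ, hKQ, hKsQ, hD₁, hKD₁, hDnil D₁ hD₁⟩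
  obtain ⟨hKp, hcard1, hcent, huniq⟩ := pk6a q N K Q D₁ pk5 h hqd
  obtain ⟨hN0, hK0, hlt, hcard, hpow, hirr, hfix⟩ :=
    pk6b q N K Q D₁ pkf pk6c pk6d pk6e h hqd hKp hcard1 hcent huniq
  refine ⟨hKp, Q, hQN, ?_, hQq, hQsyl, hNQ, hKQ, hKsQ, ?_⟩
  · intro hQ
    rw [hQ] at hlt
    exact (lt_irrefl _ (lt_of_le_of_lt bot_le hlt))
  · intro D hD
    have heq := pk7b q N Q D₁ D hQN hQq hQsyl hNQ hD₁ hD hN0
      (fun a ha b hb => (hpow a ha b hb).2) hfix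
    rw [heq]
    exact ⟨hDnil D hD, hN0, hK0, hlt, hcard, hpow, hirr⟩

/-- Statement S1437 from the packages and the earlier statements of the chain. -/
theorem s1437_of_packages (pk1 : PK1.{u}) (pk2 : PK2.{u}) (pk3 : PK3.{u}) (pk4 : PK4.{u})
    (pk5 : PK5.{u}) (pk6a : PK6a.{u}) (pkf : PKF.{u}) (pk6c : PK6c.{u}) (pk6d : PK6d.{u})
    (pk6e : PK6e.{u}) (pk6b : PK6b.{u}) (pk7a : PK7a.{u}) (pk7b : PK7b.{u}) (pk8 : PK8.{u})
    (pk9 : PK9.{u}) (pk10 : PK10.{u})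
    {G : Type u} [Group G] [Finite G] (hG : Cfsg.IsMinSimpleOddOrder G)
    (h1350 : type_of% (@Cfsg.CfsgFrozen.S1350 G _ _ hG))
    (h1351 : type_of% (@Cfsg.CfsgFrozen.S1351 G _ _ hG))
    (h1352 : type_of% (@Cfsg.CfsgFrozen.S1352 G _ _ hG))
    (h1353 : type_of% (@Cfsg.CfsgFrozen.S1353 G _ _ hG))
    (h1354 : type_of% (@Cfsg.CfsgFrozen.S1354 G _ _ hG))
    (h1366 : type_of% (@Cfsg.CfsgFrozen.S1366 G _ _ hG))
    (h1369 : type_of% (@Cfsg.CfsgFrozen.S1369 G _ _ hG))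
    (h1414 : type_of% (@Cfsg.CfsgFrozen.S1414 G _ _ hG))
    (h1426 : type_of% (@Cfsg.CfsgFrozen.S1426 G _ _ hG))
    (h1429 : type_of% (@Cfsg.CfsgFrozen.S1429 G _ _ hG))
    (h1430 : type_of% (@Cfsg.CfsgFrozen.S1430 G _ _ hG)) :
    type_of% (@Cfsg.CfsgFrozen.S1437 G _ _ hG) := by
  intro M hM K U hKU hne
  obtain ⟨hU, hK1, hder, hnn, hsup, hcop, hNK⟩ := pk1 hG h1350 h1426 h1429 M hM K U hKU hne
  have hq := pk2 hG h1350 h1351 h1352 h1353 h1354 h1366 h1369 h1429 h1430 M hM K U hKU hU hK1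
  have hMtop : M ≠ ⊤ := hM.1
  have hNM : Cfsg.sigmaCore M ≤ M := Cfsg.Agent.Lib.Helper67.BG.sigmaCore_le M
  have hcfg : Cfg (Nat.card ↥(Cfsg.sigmaCore M ⊓ Subgroup.centralizer (K : Set G)))
      (Cfsg.sigmaCore M) K :=
    { hq := hq
      hKN := hKU.hall.1.trans (Cfsg.Agent.Lib.Helper67.BG.sigmaCore_normalizer M)
      hsolv := by
        rw [hsup]
        exact Cfsg.Agent.Lib.Helper35.BG.isSolvable_of_ne_top hG hMtop
      hodd := Cfsg.Agent.Lib.Helper35.BG.odd_card_subgroup hG _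
      hcop := hcop
      hK1 := hK1
      hfix := (h1430 M hM K hKU.hall hK1).1
      hKs := rfl
      hNK := hNK
      hnn := hnn }
  obtain ⟨hKp, Q, hQN, hQ1, hQq, hQsyl, hNQ, hKQ, hKsQ, hD⟩ :=
    abstract_main pk3 pk4 pk5 pk6a pkf pk6c pk6d pk6e pk6b pk7a pk7b pk8 _ _ _ hcfg
  have hMQ : M ≤ Subgroup.normalizer (Q : Set G) :=
    le_of_eq_of_le hsup.symm (sup_le hNQ hKQ)
  have hQF : Q ≤ Cfsg.fittingHallOf M := pk10 hG h1350 M hM _ hq Q hQN hQ1 hQq hQsyl hMQ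
  have hqM : Nat.card ↥(Cfsg.sigmaCore M ⊓ Subgroup.centralizer (K : Set G)) ∣ Nat.card M :=
    Subgroup.card_dvd_of_le (inf_le_left.trans hNM)
  have hbeta := pk9 hG h1414 M hM _ hq hqM Q hQN hQq hQsyl hNQ (fun D hDc => (hD D hDc).1) hnn
  refine ⟨hU, hder, hKp, hq, Subgroup.card_dvd_of_le (hKsQ.trans hQF), hbeta, Q, hQF, hMQ, hQq,
    hQsyl, ?_⟩
  intro D hDc
  obtain ⟨h1, h2, h3, h4, h5, h6, h7⟩ := hD D hDc
  refine ⟨h1, le_of_eq_of_le hsup.symm (sup_le h2 h3), h4, h5, h6, ?_⟩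
  intro N' hN1 hN2 hMN
  exact h7 N' hN1 hN2 ⟨hNM.trans hMN, hKU.hall.1.trans hMN⟩

end Cfsg.Agent.Lib.Helper6.BG37
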